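import Mathlib
import Cfsg.Agent.Lib.Helper23.OHyp.Defs
import Cfsg.Agent.Lib.Helper99.Disc

/-!
# OHYP (S5992): package [SUM]

Orthogonal sums of nondegenerate subspaces: nondegeneracy, dimension, and the type (plus/minus)
of the sum in terms of the types of the summands (finite field, odd characteristic), through the
discriminant.
-/

set_option autoImplicit false

namespace Cfsg.Agent.Lib.Helper1.OHyp

open Cfsg.Agent.Lib.Helper23.OHyp Module

universe u

/-- in a finite field a product of two nonzero elements is a square iff both or neither are -/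
theorem isSquare_mul_iff_of_ne_zero {F : Type u} [Field F] [Fintype F] {a b : F} (ha : a ≠ 0)
    (hb : b ≠ 0) : IsSquare (a * b) ↔ (IsSquare a ↔ IsSquare b) := by
  classical
  rw [← quadraticChar_one_iff_isSquare ha, ← quadraticChar_one_iff_isSquare hb,
    ← quadraticChar_one_iff_isSquare (mul_ne_zero ha hb), map_mul]
  rcases quadraticChar_dichotomy ha with h1 | h1 <;>
    rcases quadraticChar_dichotomy hb with h2 | h2 <;> rw [h1, h2] <;> decide

section

variable {F : Type u} [Field F] {ι : Type}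

/-- the polar form as a bilinear form -/
noncomputable def polB (Q : (ι → F) → F) (hQ : Cfsg.Geo.IsNondegenerateQuadraticForm Q) :
    LinearMap.BilinForm F (ι → F) :=
  LinearMap.mk₂ F (QuadraticMap.polar Q) hQ.polar_bilinear.add_left
    (fun c m n => hQ.polar_bilinear.smul_left c m n) hQ.polar_bilinear.add_right
    (fun c m n => hQ.polar_bilinear.smul_right c m n)

theorem polB_apply (Q : (ι → F) → F) (hQ : Cfsg.Geo.IsNondegenerateQuadraticForm Q)
    (u v : ι → F) : polB Q hQ u v = QuadraticMap.polar Q u v := rfl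

theorem polar_self_eq (Q : (ι → F) → F) (hQ : Cfsg.Geo.IsNondegenerateQuadraticForm Q)
    (u : ι → F) : QuadraticMap.polar Q u u = 2 * Q u := by
  have h := hQ.smul 2 u
  unfold QuadraticMap.polar
  rw [← two_smul F u, h]
  ring

/-- the Gram determinant of a basis of a nondegenerate subspace is nonzero -/
theorem gram_det_ne_zero (Q : (ι → F) → F) (hQ : Cfsg.Geo.IsNondegenerateQuadraticForm Q)
    {κ : Type} [Fintype κ] [DecidableEq κ] (v : κ → ι → F) (hli : LinearIndependent F v)
    (hNd : Nd Q (Submodule.span F (Set.range v))) :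
    (Matrix.of fun i j => QuadraticMap.polar Q (v i) (v j)).det ≠ 0 := by
  intro hdet
  obtain ⟨c, hc0, hc⟩ := Matrix.exists_mulVec_eq_zero_iff.mpr hdet
  have hwW : (∑ j, c j • v j) ∈ Submodule.span F (Set.range v) :=
    Submodule.sum_mem _ (fun j _ => Submodule.smul_mem _ _ (Submodule.subset_span ⟨j, rfl⟩))
  have hw0 : (∑ j, c j • v j) ≠ 0 := by
    intro h0
    apply hc0
    funext j
    exact Fintype.linearIndependent_iff.mp hli c h0 j
  have hvi : ∀ i, polB Q hQ (v i) (∑ j, c j • v j) = 0 := by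
    intro i
    have h1 := congrFun hc i
    rw [map_sum]
    simp only [map_smul, smul_eq_mul, polB_apply]
    simp only [Matrix.mulVec, dotProduct, Matrix.of_apply, Pi.zero_apply] at h1
    rw [← h1]
    apply Finset.sum_congr rfl
    intro j _
    ring
  have hall : ∀ x ∈ Submodule.span F (Set.range v), polB Q hQ x (∑ j, c j • v j) = 0 := by
    intro x hxW
    induction hxW using Submodule.span_induction with
    | mem y hy =>
      obtain ⟨i, rfl⟩ := hy
      exact hvi i
    | zero => simp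
    | add y z _ _ hy hz => rw [map_add, LinearMap.add_apply, hy, hz, add_zero]
    | smul a y _ hy => rw [map_smul, LinearMap.smul_apply, hy, smul_zero]
  obtain ⟨⟨x, hxW, hx⟩, -⟩ := hNd _ hwW hw0
  exact hx (hall x hxW)

/-- plus type in terms of the discriminant -/
theorem plus_iff_isSquare [Fintype F] [Finite ι] (Q : (ι → F) → F)
    (hQ : Cfsg.Geo.IsNondegenerateQuadraticForm Q) (h2 : (2 : F) ≠ 0)
    {κ : Type} [Fintype κ] [DecidableEq κ] (v : κ → ι → F) (hli : LinearIndependent F v)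
    (hNd : Nd Q (Submodule.span F (Set.range v))) (f : ℕ) (hcard : Fintype.card κ = 2 * f) :
    Plus Q (Submodule.span F (Set.range v)) ↔
      IsSquare ((-1) ^ f * (Matrix.of fun i j => QuadraticMap.polar Q (v i) (v j)).det) := by
  have hb : ∀ i, ((Basis.span hli) i : ι → F) = v i := fun i => congrArg Subtype.val (Basis.span_apply hli i)
  have hBW : ∀ x y : ↥(Submodule.span F (Set.range v)),
      ((polB Q hQ).restrict (Submodule.span F (Set.range v))) x y =
        QuadraticMap.polar Q (x : ι → F) y := fun x y => rfl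
  have hsymm : ∀ x y : ↥(Submodule.span F (Set.range v)),
      ((polB Q hQ).restrict (Submodule.span F (Set.range v))) x y =
      ((polB Q hQ).restrict (Submodule.span F (Set.range v))) y x := fun x y => by
    rw [hBW, hBW, QuadraticMap.polar_comm]
  have hdimW : finrank F ↥(Submodule.span F (Set.range v)) = 2 * f := by
    rw [finrank_eq_card_basis (Basis.span hli), hcard]
  have hG : (Matrix.of fun i j : κ => ((polB Q hQ).restrict (Submodule.span F (Set.range v)))
      ((Basis.span hli) i) ((Basis.span hli) j)) =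
      Matrix.of fun i j => QuadraticMap.polar Q (v i) (v j) := by
    ext i j
    simp only [Matrix.of_apply, hBW, hb]
  constructor
  · rintro ⟨U, hUW, hts, hdimU⟩
    have hX : finrank F ↥(U.comap (Submodule.span F (Set.range v)).subtype) = f := by
      rw [(Submodule.comapSubtypeEquivOfLe hUW).finrank_eq]
      omega
    obtain ⟨s, hs⟩ := Cfsg.Agent.Lib.Helper99.ti_half_disc h2
      ((polB Q hQ).restrict (Submodule.span F (Set.range v))) hsymm f hdimW
      (U.comap (Submodule.span F (Set.range v)).subtype) hX (by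
        intro x hx y hy
        have hx' : (x : ι → F) ∈ U := hx
        have hy' : (y : ι → F) ∈ U := hy
        rw [hBW]
        unfold QuadraticMap.polar
        rw [hts _ (U.add_mem hx' hy'), hts _ hx', hts _ hy']
        ring) (Basis.span hli)
    rw [hG] at hs
    refine ⟨s, ?_⟩
    rw [hs]
    have h1 : ((-1 : F) ^ f * (-1) ^ f) = 1 := by
      rw [← mul_pow]
      simp
    calc (-1 : F) ^ f * ((-1) ^ f * (s * s)) = ((-1 : F) ^ f * (-1) ^ f) * (s * s) := by ring
      _ = s * s := by rw [h1, one_mul]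
  · intro hsq
    have hnd : ((polB Q hQ).restrict (Submodule.span F (Set.range v))).Nondegenerate := by
      refine ⟨fun x hx => ?_, fun y hy => ?_⟩
      · by_contra hx0
        have hx0' : (x : ι → F) ≠ 0 := fun h => hx0 (Subtype.ext h)
        obtain ⟨-, z, hz, hzx⟩ := hNd x x.2 hx0'
        exact hzx (hx ⟨z, hz⟩)
      · by_contra hy0
        have hy0' : (y : ι → F) ≠ 0 := fun h => hy0 (Subtype.ext h)
        obtain ⟨⟨z, hz, hzy⟩, -⟩ := hNd y y.2 hy0'
        exact hzy (hy ⟨z, hz⟩)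
    obtain ⟨X, hX, hXti⟩ := Cfsg.Agent.Lib.Helper99.exists_ti_of_disc h2
      ((polB Q hQ).restrict (Submodule.span F (Set.range v))) hnd hsymm f hdimW (Basis.span hli)
      (by rw [hG]; exact hsq)
    refine ⟨X.map (Submodule.span F (Set.range v)).subtype, Submodule.map_subtype_le _ X, ?_, ?_⟩
    · rintro _ ⟨x, hx, rfl⟩
      have h := hXti x hx x hx
      rw [hBW, polar_self_eq Q hQ] at h
      exact (mul_eq_zero.mp h).resolve_left h2
    · rw [hdimW, ← hX]
      congr 1
      exact (Submodule.equivSubtypeMap _ X).finrank_eq.symm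

end

theorem pkgSum : PkgSum.{u} := by
  intro F _ _ ι _ _ Q hQ h2 W₁ W₂ hN1 hN2 hP
  classical
  have hpc : ∀ a b : ι → F, QuadraticMap.polar Q a b = QuadraticMap.polar Q b a :=
    QuadraticMap.polar_comm Q
  have hdisj : Disjoint W₁ W₂ := by
    rw [Submodule.disjoint_def]
    intro w h1 h2'
    by_contra hw
    obtain ⟨⟨x, hx, hxw⟩, -⟩ := hN1 w h1 hw
    exact hxw (hP x hx w h2')
  have hNd : Nd Q (W₁ ⊔ W₂) := by
    intro w hw hw0
    obtain ⟨w₁, hw₁, w₂, hw₂, rfl⟩ := Submodule.mem_sup.mp hw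
    by_cases h1 : w₁ = 0
    · have h20 : w₂ ≠ 0 := by
        rintro rfl
        apply hw0
        rw [h1]
        simp
      obtain ⟨⟨x, hx, hxw⟩, -⟩ := hN2 w₂ hw₂ h20
      have key : QuadraticMap.polar Q x (w₁ + w₂) ≠ 0 := by
        rw [hQ.polar_bilinear.add_right, hpc x w₁, hP w₁ hw₁ x hx, zero_add]
        exact hxw
      exact ⟨⟨x, Submodule.mem_sup_right hx, key⟩,
        ⟨x, Submodule.mem_sup_right hx, by rw [hpc]; exact key⟩⟩
    · obtain ⟨⟨x, hx, hxw⟩, -⟩ := hN1 w₁ hw₁ h1
      have key : QuadraticMap.polar Q x (w₁ + w₂) ≠ 0 := by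
        rw [hQ.polar_bilinear.add_right, hP x hx w₂ hw₂, add_zero]
        exact hxw
      exact ⟨⟨x, Submodule.mem_sup_left hx, key⟩,
        ⟨x, Submodule.mem_sup_left hx, by rw [hpc]; exact key⟩⟩
  have hdim : finrank F ↥(W₁ ⊔ W₂) = finrank F W₁ + finrank F W₂ := by
    have h := Submodule.finrank_sup_add_finrank_inf_eq W₁ W₂
    rw [disjoint_iff.mp hdisj, finrank_bot] at h
    omega
  refine ⟨hNd, hdim, ?_⟩
  rintro ⟨f₁, hf₁⟩ ⟨f₂, hf₂⟩
  obtain ⟨w₁, hli₁, hs₁⟩ := Cfsg.Agent.Lib.Helper99.exists_family_of_finrank W₁ hf₁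
  obtain ⟨w₂, hli₂, hs₂⟩ := Cfsg.Agent.Lib.Helper99.exists_family_of_finrank W₂ hf₂
  have hw₁ : ∀ i, w₁ i ∈ W₁ := fun i => hs₁ ▸ Submodule.subset_span ⟨i, rfl⟩
  have hw₂ : ∀ i, w₂ i ∈ W₂ := fun i => hs₂ ▸ Submodule.subset_span ⟨i, rfl⟩
  have hli : LinearIndependent F (Sum.elim w₁ w₂) := by
    apply LinearIndependent.sum_type hli₁ hli₂
    rw [hs₁, hs₂]
    exact hdisj
  have hs : Submodule.span F (Set.range (Sum.elim w₁ w₂)) = W₁ ⊔ W₂ := by
    rw [Set.Sum.elim_range, Submodule.span_union, hs₁, hs₂]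
  have hN1' : Nd Q (Submodule.span F (Set.range w₁)) := by
    rw [hs₁]
    exact hN1
  have hN2' : Nd Q (Submodule.span F (Set.range w₂)) := by
    rw [hs₂]
    exact hN2
  have hNd' : Nd Q (Submodule.span F (Set.range (Sum.elim w₁ w₂))) := by
    rw [hs]
    exact hNd
  have e1 := plus_iff_isSquare Q hQ h2 w₁ hli₁ hN1' f₁ (by rw [Fintype.card_fin]; omega)
  have e2 := plus_iff_isSquare Q hQ h2 w₂ hli₂ hN2' f₂ (by rw [Fintype.card_fin]; omega)
  have e := plus_iff_isSquare Q hQ h2 (Sum.elim w₁ w₂) hli hNd' (f₁ + f₂) (by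
    rw [Fintype.card_sum, Fintype.card_fin, Fintype.card_fin]; omega)
  have d1 := gram_det_ne_zero Q hQ w₁ hli₁ hN1'
  have d2 := gram_det_ne_zero Q hQ w₂ hli₂ hN2'
  rw [hs₁] at e1
  rw [hs₂] at e2
  rw [hs] at e
  have hG : (Matrix.of fun i j => QuadraticMap.polar Q (Sum.elim w₁ w₂ i) (Sum.elim w₁ w₂ j)) =
      Matrix.fromBlocks (Matrix.of fun i j => QuadraticMap.polar Q (w₁ i) (w₁ j)) 0 0
        (Matrix.of fun i j => QuadraticMap.polar Q (w₂ i) (w₂ j)) := by
    ext i j
    rcases i with i | i <;> rcases j with j | j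
    · simp
    · simp [hP (w₁ i) (hw₁ i) (w₂ j) (hw₂ j)]
    · simp [hpc (w₂ i) (w₁ j), hP (w₁ j) (hw₁ j) (w₂ i) (hw₂ i)]
    · simp
  rw [hG, Matrix.det_fromBlocks_zero₁₂] at e
  rw [e, e1, e2]
  have h3 : (-1 : F) ^ (f₁ + f₂) *
      ((Matrix.of fun i j => QuadraticMap.polar Q (w₁ i) (w₁ j)).det *
        (Matrix.of fun i j => QuadraticMap.polar Q (w₂ i) (w₂ j)).det) =
      ((-1) ^ f₁ * (Matrix.of fun i j => QuadraticMap.polar Q (w₁ i) (w₁ j)).det) *
        ((-1) ^ f₂ * (Matrix.of fun i j => QuadraticMap.polar Q (w₂ i) (w₂ j)).det) := by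
    rw [pow_add]
    ring
  rw [h3]
  have hm1 : ∀ k : ℕ, ((-1 : F)) ^ k ≠ 0 := fun k => pow_ne_zero k (neg_ne_zero.mpr one_ne_zero)
  exact isSquare_mul_iff_of_ne_zero (mul_ne_zero (hm1 f₁) d1) (mul_ne_zero (hm1 f₂) d2)

end Cfsg.Agent.Lib.Helper1.OHyp
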